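import Cfsg.Agent.Dickson.SpUnipPair

/-!
A finite symplectic space of dimension `2m` over a field with `q` elements has `q^(2m²)` unipotent isometries.
-/

set_option autoImplicit false
set_option linter.unusedSectionVars false
set_option linter.style.haveILetI false

universe u v

namespace Cfsg.Agent.Dickson.SpUnip

open Module

variable {F : Type u} [Field F] [Finite F] {V : Type v} [AddCommGroup V] [Module F V] [Finite V]
  {B : LinearMap.BilinForm F V}

/-- The weights of the totally isotropic subspaces over `W`, by codimension of `W`. -/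
noncomputable def isoSum (B : LinearMap.BilinForm F V) (W : Submodule F V) : ℤ :=
  haveI := finite_submodules (F := F) (V := V)
  haveI := Fintype.ofFinite (Submodule F V)
  haveI := Classical.decPred (fun X : Submodule F V => W ≤ X ∧ TI B X)
  ∑ X ∈ Finset.univ.filter (fun X => W ≤ X ∧ TI B X), wt F (finrank F X - finrank F W)

theorem isoSum_eq [Fintype (Submodule F V)] (W : Submodule F V)
    [DecidablePred fun X : Submodule F V => W ≤ X ∧ TI B X] :
    isoSum B W = ∑ X ∈ Finset.univ.filter (fun X => W ≤ X ∧ TI B X), wt F (finrank F X - finrank F W) := by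
  unfold isoSum
  congr!

theorem isoSum_bot_succ (d : Pair B) :
    isoSum B ⊥ = - ((Nat.card F : ℤ) * (Nat.card d.U : ℤ) * isoSum d.form ⊥) := by
  classical
  haveI : Module.Finite F V := Module.Finite.of_finite
  haveI := finite_submodules (F := F) (V := V)
  haveI := finite_submodules (F := F) (V := d.U)
  haveI := Fintype.ofFinite (Submodule F V)
  haveI := Fintype.ofFinite (Submodule F d.U)
  haveI := Fintype.ofFinite F
  haveI := Fintype.ofFinite d.U
  rw [isoSum_eq, isoSum_eq, finrank_bot, finrank_bot]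
  simp only [bot_le, true_and, Nat.sub_zero]
  rw [← Finset.sum_filter_add_sum_filter_not _ (fun X : Submodule F V => X ≤ LinearMap.ker (B d.v))]
  have hzero : ∑ X ∈ (Finset.univ.filter fun X : Submodule F V => TI B X).filter
      (fun X => X ≤ LinearMap.ker (B d.v)), wt F (finrank F X) = 0 := by
    rw [Finset.filter_filter]
    refine sum_wt_eq_zero d.v_ne _ fun W => ⟨fun h => ⟨?_, sup_le h.2 ?_⟩,
      fun h => ⟨h.1.mono le_sup_left, le_sup_left.trans h.2⟩⟩
    · intro x hx y hy
      obtain ⟨x₁, hx₁, _, hx₂, rfl⟩ := Submodule.mem_sup.1 hx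
      obtain ⟨y₁, hy₁, _, hy₂, rfl⟩ := Submodule.mem_sup.1 hy
      obtain ⟨c, rfl⟩ := Submodule.mem_span_singleton.1 hx₂
      obtain ⟨e, rfl⟩ := Submodule.mem_span_singleton.1 hy₂
      simp only [map_add, LinearMap.add_apply, map_smul, LinearMap.smul_apply, smul_eq_mul,
        h.1 x₁ hx₁ y₁ hy₁, LinearMap.mem_ker.1 (h.2 hy₁), d.isAlt.self_eq_zero]
      rw [← d.isAlt.neg_eq, LinearMap.mem_ker.1 (h.2 hx₁)]
      ring
    · rw [Submodule.span_le, Set.singleton_subset_iff, SetLike.mem_coe, LinearMap.mem_ker]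
      exact d.isAlt.self_eq_zero _
  rw [hzero, zero_add]
  -- the subspaces off the hyperplane
  set T := ((Finset.univ.filter fun X : Submodule F d.U => TI d.form X) ×ˢ
    ((Finset.univ : Finset F) ×ˢ (Finset.univ : Finset d.U)))
  set S := (Finset.univ.filter fun X : Submodule F V => TI B X).filter
    (fun X => ¬ X ≤ LinearMap.ker (B d.v))
  have hmap : ∀ t ∈ T, d.off t.1 t.2.1 t.2.2 ∈ S := by
    intro t ht
    simp only [T, Finset.mem_product, Finset.mem_filter, Finset.mem_univ, true_and, and_true] at ht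
    simp only [S, Finset.mem_filter, Finset.mem_univ, true_and]
    exact ⟨d.ti_off ht _ _, d.off_not_le _ _ _⟩
  have key : ∑ t ∈ T, wt F (finrank F t.1) =
      (Nat.card F : ℤ) * (Nat.card d.U : ℤ) *
        ∑ X ∈ Finset.univ.filter (fun X : Submodule F d.U => TI d.form X), wt F (finrank F X) := by
    rw [Finset.sum_product, Finset.mul_sum]
    refine Finset.sum_congr rfl fun X _ => ?_
    refine (Finset.sum_eq_card_nsmul (b := wt F (finrank F X)) fun _ _ => rfl).trans ?_
    rw [Finset.card_product, Finset.card_univ, Finset.card_univ, Nat.card_eq_fintype_card,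
      Nat.card_eq_fintype_card, nsmul_eq_mul]
    push_cast
    ring
  rw [← key, ← Finset.sum_fiberwise_of_maps_to hmap, ← Finset.sum_neg_distrib]
  refine Finset.sum_congr rfl fun W hW => ?_
  simp only [S, Finset.mem_filter, Finset.mem_univ, true_and] at hW
  obtain ⟨X, a, z, hX, rfl⟩ := d.exists_off hW.1 hW.2
  have hfib : T.filter (fun t => d.off t.1 t.2.1 t.2.2 = d.off X a z) =
      (Finset.univ.filter fun y : d.U => y ∈ X).image
        (fun y => (X, a - B ((y + z : d.U) : V) (z : V), y + z)) := by
    ext t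
    simp only [T, Finset.mem_filter, Finset.mem_product, Finset.mem_univ, true_and, and_true,
      Finset.mem_image]
    constructor
    · rintro ⟨-, h⟩
      obtain ⟨h1, h2, h3⟩ := (d.off_eq_iff hX _ _ _ _).1 h
      refine ⟨t.2.2 - z, h2, ?_⟩
      rw [sub_add_cancel, ← h3, ← h1]
    · rintro ⟨y, hy, rfl⟩
      exact ⟨hX, (d.off_eq_iff hX _ _ _ _).2 ⟨rfl, by simpa using hy, rfl⟩⟩
  rw [hfib, Finset.sum_image]
  · refine Eq.trans ?_ (congrArg Neg.neg (Finset.sum_eq_card_nsmul (b := wt F (finrank F X)) fun _ _ => rfl).symm)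
    rw [nsmul_eq_mul, d.finrank_off, wt_succ,
      ← Fintype.card_subtype, ← Nat.card_eq_fintype_card, Module.natCard_eq_pow_finrank (K := F) (V := X)]
    push_cast; ring
  · intro y _ y' _ h
    exact add_right_cancel (Prod.ext_iff.1 (Prod.ext_iff.1 h).2).2

theorem isoSum_up (d : Pair B) {W : Submodule F V} (hW : TI B W) (hv : d.v ∈ W) :
    isoSum B W = isoSum d.form (d.down W) := by
  classical
  haveI : Module.Finite F V := Module.Finite.of_finite
  haveI := finite_submodules (F := F) (V := V)
  haveI := finite_submodules (F := F) (V := d.U)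
  haveI := Fintype.ofFinite (Submodule F V)
  haveI := Fintype.ofFinite (Submodule F d.U)
  rw [isoSum_eq, isoSum_eq]
  refine Finset.sum_bij' (fun X _ => d.down X) (fun X _ => d.up X) ?_ ?_ ?_ ?_ ?_
  · intro X hX
    simp only [Finset.mem_filter, Finset.mem_univ, true_and] at hX ⊢
    exact ⟨fun x hx => hX.1 hx, d.ti_down hX.2⟩
  · intro X hX
    simp only [Finset.mem_filter, Finset.mem_univ, true_and] at hX ⊢
    refine ⟨?_, d.ti_up hX.2⟩
    conv_lhs => rw [← d.up_down hW hv]
    exact sup_le_sup_left (Submodule.map_mono hX.1) _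
  · intro X hX
    simp only [Finset.mem_filter, Finset.mem_univ, true_and] at hX
    exact d.up_down hX.2 (hX.1 hv)
  · intro X _
    exact d.down_up X
  · intro X hX
    simp only [Finset.mem_filter, Finset.mem_univ, true_and] at hX
    rw [d.finrank_down hX.2 (hX.1 hv), d.finrank_down hW hv, Nat.add_sub_add_right]

/-- Over a totally isotropic subspace of dimension `k` the weights sum to `(-1)^(m-k) q^((m-k)²)`. -/
theorem isoSum_value : ∀ (m : ℕ) {V : Type v} [AddCommGroup V] [Module F V] [Finite V]
    {B : LinearMap.BilinForm F V}, B.IsAlt → B.Nondegenerate → finrank F V = 2 * m →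
    ∀ W, TI B W → finrank F W ≤ m ∧
      isoSum B W = (-1) ^ (m - finrank F W) * (Nat.card F : ℤ) ^ ((m - finrank F W) ^ 2) := by
  intro m
  induction m with
  | zero =>
    intro V _ _ _ B hA hB hn W hW
    classical
    haveI : Module.Finite F V := Module.Finite.of_finite
    haveI := finite_submodules (F := F) (V := V)
    haveI := Fintype.ofFinite (Submodule F V)
    haveI : Subsingleton V := Module.finrank_zero_iff.1 (by omega : finrank F V = 0)
    have hb : ∀ X : Submodule F V, X = W := fun X => Submodule.ext fun x => by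
      rw [Subsingleton.elim x 0]
      simp
    have h0 : finrank F W = 0 := Module.finrank_zero_of_subsingleton
    refine ⟨h0.le, ?_⟩
    rw [isoSum_eq, show Finset.univ.filter (fun X => W ≤ X ∧ TI B X) = {W} from Finset.ext fun X => by
      simp only [Finset.mem_filter, Finset.mem_univ, true_and, Finset.mem_singleton]
      exact ⟨fun _ => hb X, fun e => by rw [e]; exact ⟨le_rfl, hW⟩⟩, Finset.sum_singleton, Nat.sub_self, h0, wt_zero]
    simp
  | succ m ih =>
    intro V _ _ _ B hA hB hn W hW
    haveI : Module.Finite F V := Module.Finite.of_finite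
    by_cases hW0 : W = ⊥
    · subst hW0
      haveI : Nontrivial V := Module.nontrivial_of_finrank_pos (R := F) (by omega)
      obtain ⟨x, hx⟩ := exists_ne (0 : V)
      obtain ⟨d, -⟩ := exists_pair hA hB hx
      have hU : finrank F d.U = 2 * m := by have := d.finrank_U; omega
      obtain ⟨-, h⟩ := ih d.form_alt d.form_nondeg hU ⊥ (fun x hx y _ => by
        rw [(Submodule.mem_bot F).1 hx, map_zero, LinearMap.zero_apply])
      rw [finrank_bot, Nat.sub_zero] at h ⊢
      refine ⟨Nat.zero_le _, ?_⟩
      rw [isoSum_bot_succ d, h, Module.natCard_eq_pow_finrank (K := F) (V := d.U), hU]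
      push_cast
      ring
    · obtain ⟨x, hx, hx0⟩ := Submodule.exists_mem_ne_zero_of_ne_bot hW0
      obtain ⟨d, rfl⟩ := exists_pair hA hB hx0
      have hU : finrank F d.U = 2 * m := by have := d.finrank_U; omega
      obtain ⟨hle, h⟩ := ih d.form_alt d.form_nondeg hU _ (d.ti_down hW)
      rw [d.finrank_down hW hx, isoSum_up d hW hx, h, Nat.add_sub_add_right]
      exact ⟨by omega, rfl⟩

/-- The signed sum over all totally isotropic subspaces of `q^((m-k)²)`. -/
theorem square_sum [Fintype (Submodule F V)] [DecidablePred fun W : Submodule F V => TI B W]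
    {m : ℕ} (hA : B.IsAlt) (hB : B.Nondegenerate) (hn : finrank F V = 2 * m) :
    ∑ W ∈ Finset.univ.filter (fun W => TI B W),
      (-1 : ℤ) ^ finrank F W * (Nat.card F : ℤ) ^ ((m - finrank F W) ^ 2) = (-1) ^ m := by
  classical
  haveI : Module.Finite F V := Module.Finite.of_finite
  have h : ∀ W ∈ Finset.univ.filter (fun W => TI B W),
      (-1 : ℤ) ^ finrank F W * (Nat.card F : ℤ) ^ ((m - finrank F W) ^ 2) = (-1) ^ m * isoSum B W := by
    intro W hW
    simp only [Finset.mem_filter, Finset.mem_univ, true_and] at hW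
    obtain ⟨hle, h⟩ := isoSum_value m hA hB hn W hW
    obtain ⟨j, rfl⟩ := Nat.exists_eq_add_of_le hle
    rw [h, Nat.add_sub_cancel_left, pow_add, mul_assoc, ← mul_assoc ((-1 : ℤ) ^ j), ← mul_pow]
    simp
  rw [Finset.sum_congr rfl h, ← Finset.mul_sum]
  simp only [isoSum_eq]
  rw [Finset.sum_comm' (t' := Finset.univ.filter fun X : Submodule F V => TI B X)
    (s' := fun X => Finset.univ.filter fun W => W ≤ X) (fun W X => by
      simp only [Finset.mem_filter, Finset.mem_univ, true_and]
      exact ⟨fun h => ⟨h.2.1, h.2.2⟩, fun h => ⟨h.2.mono h.1, h.1, h.2⟩⟩)]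
  simp only [sum_wt_codim]
  rw [Finset.sum_ite_eq', if_pos, mul_one]
  simp only [Finset.mem_filter, Finset.mem_univ, true_and]
  exact fun x hx y _ => by rw [(Submodule.mem_bot F).1 hx, map_zero, LinearMap.zero_apply]

theorem numFix_up (d : Pair B) {W : Submodule F V} (hW : TI B W) (hv : d.v ∈ W) :
    numFix B W = numFix d.form (d.down W) *
      (Nat.card F * Nat.card (d.form.orthogonal (d.down W))) := by
  classical
  haveI : Module.Finite F V := Module.Finite.of_finite
  let f : {g : d.U ≃ₗ[F] d.U // IsUnip d.form g ∧ ∀ x ∈ d.down W, g x = x} ×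
      (F × d.form.orthogonal (d.down W)) → (V ≃ₗ[F] V) :=
    fun t => d.lift t.1.1 t.1.2.1.1 t.2.2.1 t.2.1
  have hcoord : ∀ t, ∀ x : d.U, (f t x) = (- B (t.1.1 x : V) (t.2.2.1 : V)) • d.v + (t.1.1 x : V) :=
    fun t x => d.lift_U _ _ _ _ x
  have hfix : ∀ t, ∀ x ∈ W, f t x = x := by
    intro t x hx
    rw [← d.up_down hW hv, d.mem_up] at hx
    obtain ⟨c, y, hy, rfl⟩ := hx
    rw [map_add, map_smul, hcoord, show f t d.v = d.v from d.lift_v _ _ _ _, t.1.2.2 y hy]
    have h0 : B (y : V) (t.2.2.1 : V) = 0 := t.2.2.2 y hy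
    rw [h0, neg_zero, zero_smul, zero_add]
  have hnil : ∀ t, IsUnip B (f t) := by
    intro t
    refine ⟨fun x x' => d.liftMap_isometry _ t.1.2.1.1 _ _ x x', (isNilpotent_sub_one_iff _).2 ?_⟩
    obtain ⟨k, hk⟩ := (isNilpotent_sub_one_iff _).1 t.1.2.1.2
    obtain ⟨N, hN⟩ : ∃ N, N = ((f t : Module.End F V) - 1) := ⟨_, rfl⟩
    rw [← hN]
    have hvv : N d.v = 0 := by
      simp only [hN, LinearMap.sub_apply, Module.End.one_apply, LinearEquiv.coe_coe,
        show f t d.v = d.v from d.lift_v _ _ _ _, sub_self]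
    have hU : ∀ (j : ℕ) (x : d.U), ∃ c : F, (N ^ j) (x : V) =
        c • d.v + ((((t.1.1 : Module.End F d.U) - 1) ^ j) x : V) := by
      intro j
      induction j with
      | zero => intro x; exact ⟨0, by simp⟩
      | succ j ih =>
        intro x
        obtain ⟨c, hc⟩ := ih x
        refine ⟨- B (t.1.1 ((((t.1.1 : Module.End F d.U) - 1) ^ j) x) : V) (t.2.2.1 : V), ?_⟩
        rw [pow_succ', Module.End.mul_apply, hc, map_add, map_smul, hvv, smul_zero, zero_add,
          pow_succ', Module.End.mul_apply]
        simp only [hN, LinearMap.sub_apply, Module.End.one_apply, LinearEquiv.coe_coe, hcoord,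
          Submodule.coe_sub]
        abel
    refine ⟨k + 2, fun x => ?_⟩
    have hU2 : ∀ x : d.U, (N ^ (k + 1)) (x : V) = 0 := by
      intro x
      obtain ⟨c, hc⟩ := hU k x
      rw [pow_succ', Module.End.mul_apply, hc, hk, Submodule.coe_zero, add_zero, map_smul, hvv, smul_zero]
    have hv2 : (N ^ (k + 1)) d.v = 0 := by rw [pow_succ, Module.End.mul_apply, hvv, map_zero]
    obtain ⟨b, hb⟩ : ∃ b, b = B d.v x := ⟨_, rfl⟩
    have hNx : N x = (B x d.w + t.2.1 * b - B (t.1.1 (d.proj x) : V) (t.2.2.1 : V) - B x d.w) • d.v +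
        ((b • t.2.2.1 + t.1.1 (d.proj x) - d.proj x : d.U) : V) := by
      rw [hN, LinearMap.sub_apply, Module.End.one_apply, LinearEquiv.coe_coe]
      show d.liftMap _ _ _ x - x = _
      rw [d.liftMap_apply, ← hb]
      conv_lhs => arg 2; rw [d.decomp x, ← hb]
      simp only [Submodule.coe_sub, sub_smul]
      abel
    rw [show k + 2 = (k + 1) + 1 from rfl, pow_succ, Module.End.mul_apply, hNx, map_add, map_smul, hv2, hU2,
      smul_zero, add_zero]
  unfold numFix
  rw [← Nat.card_prod, ← Nat.card_prod]
  symm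
  refine Nat.card_eq_of_bijective (fun t => (⟨f t, hnil t, hfix t⟩ :
    {u : V ≃ₗ[F] V // IsUnip B u ∧ ∀ x ∈ W, u x = x})) ⟨?_, ?_⟩
  · intro t t' h
    have h' : f t = f t' := congrArg Subtype.val h
    have hg : t.1.1 = t'.1.1 := by
      refine LinearEquiv.ext fun x => ?_
      have h1 := congrArg d.proj ((hcoord t x).symm.trans ((LinearEquiv.congr_fun h' (x : V)).trans (hcoord t' x)))
      simpa [d.proj_v, d.proj_U] using h1
    have hw := LinearEquiv.congr_fun h' d.w
    simp only [f, d.lift_apply, d.liftMap_apply, d.hvw, d.isAlt.self_eq_zero] at hw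
    have hp : d.proj d.w = 0 := by simpa using d.proj_coord 0 1 0
    simp only [hp, map_zero, Submodule.coe_zero, LinearMap.zero_apply, sub_zero, zero_add, one_smul,
      mul_one, add_zero] at hw
    have h2 := congrArg (fun z => B z d.w) hw
    simp only [map_add, LinearMap.add_apply, map_smul, LinearMap.smul_apply, smul_eq_mul, d.hvw,
      d.isAlt.self_eq_zero, d.Uw, mul_one, add_zero] at h2
    have h3 := congrArg d.proj hw
    simp only [map_add, map_smul, d.proj_v, d.proj_U, hp, smul_zero, zero_add] at h3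
    exact Prod.ext (Subtype.ext hg) (Prod.ext h2 (Subtype.ext h3))
  · rintro ⟨u, ⟨hiso, hu⟩, huW⟩
    have huv : u d.v = d.v := huW _ hv
    have hbx : ∀ x, B d.v (u x) = B d.v x := fun x => by
      conv_lhs => rw [← huv]
      exact hiso _ _
    let g₀ : d.U →ₗ[F] d.U := d.proj.comp ((u : Module.End F V).comp d.U.subtype)
    have hux : ∀ x : d.U, u (x : V) = B (u (x : V)) d.w • d.v + (g₀ x : V) := by
      intro x
      have := d.decomp (u (x : V))
      rwa [hbx, d.vU, zero_smul, add_zero] at this
    have hg₀ : ∀ x x', d.form (g₀ x) (g₀ x') = d.form x x' := by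
      intro x x'
      have e := d.form_eq (B (u (x : V)) d.w) 0 (B (u (x' : V)) d.w) 0 (g₀ x) (g₀ x')
      rw [zero_smul, add_zero, add_zero, ← hux, ← hux, hiso] at e
      simpa [d.form_apply] using e.symm
    let g := LinearEquiv.ofInjectiveEndo g₀ (fun x x' h => sub_eq_zero.1 (d.form_nondeg.1 _ fun z => by
      rw [← hg₀, map_sub, h, sub_self, map_zero, LinearMap.zero_apply]))
    have hgnil : IsNilpotent ((g : Module.End F d.U) - 1) := by
      obtain ⟨k, hk⟩ := (isNilpotent_sub_one_iff _).1 hu
      refine (isNilpotent_sub_one_iff _).2 ⟨k, fun x => ?_⟩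
      have hj : ∀ j : ℕ, B d.v ((((u : Module.End F V) - 1) ^ j) (x : V)) = 0 ∧
          d.proj ((((u : Module.End F V) - 1) ^ j) (x : V)) = (((g : Module.End F d.U) - 1) ^ j) x := by
        intro j
        induction j with
        | zero => exact ⟨d.vU x, d.proj_U x⟩
        | succ j ih =>
          rw [pow_succ', Module.End.mul_apply, pow_succ', Module.End.mul_apply]
          simp only [LinearMap.sub_apply, Module.End.one_apply, LinearEquiv.coe_coe, map_sub, hbx, ih.1,
            sub_self, true_and]
          rw [ih.2]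
          congr 1
          have hd := d.decomp ((((u : Module.End F V) - 1) ^ j) (x : V))
          rw [ih.1, zero_smul, add_zero, ih.2] at hd
          conv_lhs => rw [hd]
          rw [map_add, map_add, map_smul, map_smul, huv, d.proj_v, smul_zero, zero_add]
          rfl
      rw [← (hj k).2, hk, map_zero]
    have huw : u d.w = B (u d.w) d.w • d.v + d.w + (d.proj (u d.w) : V) := by
      have := d.decomp (u d.w)
      rwa [hbx, d.hvw, one_smul] at this
    have hc : ∀ x : d.U, B (u (x : V)) d.w = - B (g₀ x : V) (d.proj (u d.w) : V) := by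
      intro x
      have e := d.form_eq (B (u (x : V)) d.w) 0 (B (u d.w) d.w) 1 (g₀ x) (d.proj (u d.w))
      rw [zero_smul, add_zero, one_smul, ← hux, ← huw, hiso, d.Uw, mul_one, zero_mul, sub_zero] at e
      linear_combination -e
    refine ⟨(⟨g, ⟨hg₀, hgnil⟩, fun x hx => ?_⟩, B (u d.w) d.w, ⟨d.proj (u d.w), fun x hx => ?_⟩), ?_⟩
    · show d.proj (u (x : V)) = x
      rw [huW (x : V) hx, d.proj_U]
    · show B (x : V) (d.proj (u d.w) : V) = 0
      have h1 := hc x
      have h2 : g₀ x = x := by
        show d.proj (u (x : V)) = x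
        rw [huW (x : V) hx, d.proj_U]
      rw [huW (x : V) hx, d.Uw, h2] at h1
      linear_combination h1
    · refine Subtype.ext (LinearEquiv.ext fun x => ?_)
      show d.liftMap g (d.proj (u d.w)) (B (u d.w) d.w) x = u x
      have hgx : g (d.proj x) = g₀ (d.proj x) := rfl
      conv_rhs => rw [d.decomp x, map_add, map_add, map_smul, map_smul, huv, hux, hc]
      rw [d.liftMap_apply, hgx]
      generalize B (u d.w) d.w = a₁ at huw ⊢
      generalize d.proj (u d.w) = z₁ at huw ⊢
      rw [huw]
      simp only [smul_add, smul_smul, add_smul, sub_smul, neg_smul, Submodule.coe_add, Submodule.coe_smul]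
      rw [mul_comm a₁]
      abel

end Cfsg.Agent.Dickson.SpUnip
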