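import Cfsg.Agent.Dickson.SpUnipCount

/-!
Induction for the number of unipotent isometries of a finite symplectic space.
-/

set_option autoImplicit false
set_option linter.unusedSectionVars false
set_option linter.style.haveILetI false

universe u v

namespace Cfsg.Agent.Dickson.SpUnip

open Module

variable {F : Type u} [Field F] [Finite F]

/-- The weights over the fixed totally isotropic subspaces of a unipotent isometry cancel unless it is `1`. -/
theorem fixed_sum_eq {V : Type v} [AddCommGroup V] [Module F V] [Finite V] [Fintype (Submodule F V)]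
    {B : LinearMap.BilinForm F V} (hA : B.IsAlt) (u : V ≃ₗ[F] V) (hu : IsUnip B u) (hne : u ≠ 1)
    [DecidablePred fun W : Submodule F V => TI B W ∧ ∀ x ∈ W, u x = x] :
    ∑ W ∈ Finset.univ.filter (fun W => TI B W ∧ ∀ x ∈ W, u x = x), wt F (finrank F W) = 0 := by
  obtain ⟨N, hN⟩ : ∃ N, N = ((u : Module.End F V) - 1) := ⟨_, rfl⟩
  obtain ⟨x, hx⟩ : ∃ x, N x ≠ 0 := by
    by_contra h
    push Not at h
    exact hne (LinearEquiv.ext fun x => sub_eq_zero.1 (by simpa [hN] using h x))
  have hNn : ∃ k, (N ^ (k + 1)) x = 0 := by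
    obtain ⟨k, hk⟩ := (isNilpotent_sub_one_iff u).1 hu.2
    rw [← hN] at hk
    exact ⟨k, by rw [pow_succ', Module.End.mul_apply, hk, map_zero]⟩
  classical
  obtain ⟨k, hk, hmin⟩ : ∃ k, (N ^ (k + 1)) x = 0 ∧ ∀ j < k, (N ^ (j + 1)) x ≠ 0 :=
    ⟨Nat.find hNn, Nat.find_spec hNn, fun j hj => Nat.find_min hNn hj⟩
  obtain ⟨j, rfl⟩ : ∃ j, k = j + 1 :=
    Nat.exists_eq_add_one_of_ne_zero fun e => hx (by simpa [e] using hk)
  obtain ⟨r, hr⟩ : ∃ r, r = (N ^ (j + 1)) x := ⟨_, rfl⟩
  have hr0 : r ≠ 0 := hr ▸ hmin j (Nat.lt_succ_self j)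
  have hur : u r = r := by
    refine sub_eq_zero.1 ?_
    have : N r = 0 := by rw [hr, ← Module.End.mul_apply, ← pow_succ']; exact hk
    simpa [hN] using this
  obtain ⟨y, hy⟩ : ∃ y, r = u y - y := ⟨(N ^ j) x, by
    rw [hr, pow_succ', Module.End.mul_apply]
    simp [hN]⟩
  have hperp : ∀ z, u z = z → B r z = 0 := by
    intro z hz
    rw [hy, map_sub, LinearMap.sub_apply]
    nth_rw 1 [← hz]
    rw [hu.1, sub_self]
  refine sum_wt_eq_zero hr0 _ fun W => ⟨fun h => ⟨?_, ?_⟩, fun h => ⟨h.1.mono le_sup_left, fun z hz =>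
    h.2 z (Submodule.mem_sup_left hz)⟩⟩
  · intro a ha b hb
    obtain ⟨a₁, ha₁, _, ha₂, rfl⟩ := Submodule.mem_sup.1 ha
    obtain ⟨b₁, hb₁, _, hb₂, rfl⟩ := Submodule.mem_sup.1 hb
    obtain ⟨c, rfl⟩ := Submodule.mem_span_singleton.1 ha₂
    obtain ⟨e, rfl⟩ := Submodule.mem_span_singleton.1 hb₂
    simp only [map_add, LinearMap.add_apply, map_smul, LinearMap.smul_apply, smul_eq_mul,
      h.1 a₁ ha₁ b₁ hb₁, hperp b₁ (h.2 b₁ hb₁), hA.self_eq_zero]
    rw [← hA.neg_eq, hperp a₁ (h.2 a₁ ha₁)]
    ring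
  · intro a ha
    obtain ⟨a₁, ha₁, _, ha₂, rfl⟩ := Submodule.mem_sup.1 ha
    obtain ⟨c, rfl⟩ := Submodule.mem_span_singleton.1 ha₂
    rw [map_add, map_smul, hur, h.2 a₁ ha₁]

/-- The exponent of `numFix`. -/
def expo (m k : ℕ) : ℕ := 2 * (m - k) * k + (k + 1).choose 2 + 2 * (m - k) ^ 2

theorem numFix_value : ∀ (m : ℕ) {V : Type v} [AddCommGroup V] [Module F V] [Finite V]
    {B : LinearMap.BilinForm F V}, B.IsAlt → B.Nondegenerate → finrank F V = 2 * m →
    ∀ W, TI B W → numFix B W = Nat.card F ^ expo m (finrank F W) := by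
  intro m
  induction m with
  | zero =>
    intro V _ _ _ B hA hB hn W hW
    haveI : Module.Finite F V := Module.Finite.of_finite
    haveI : Subsingleton V := Module.finrank_zero_iff.1 (by omega : finrank F V = 0)
    have h0 : finrank F W = 0 := Module.finrank_zero_of_subsingleton
    rw [h0, show expo 0 0 = 0 from rfl, pow_zero, numFix, Nat.card_eq_one_iff_unique]
    refine ⟨⟨fun a b => Subtype.ext (LinearEquiv.ext fun x => Subsingleton.elim _ _)⟩,
      ⟨⟨1, ⟨fun x y => by rw [Subsingleton.elim x 0, map_zero]; simp, ⟨1, ?_⟩⟩, fun x _ => rfl⟩⟩⟩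
    exact LinearMap.ext fun x => Subsingleton.elim _ _
  | succ m ih =>
    intro V _ _ _ B hA hB hn
    haveI : Module.Finite F V := Module.Finite.of_finite
    have hnz : ∀ W, TI B W → W ≠ ⊥ → numFix B W = Nat.card F ^ expo (m + 1) (finrank F W) := by
      intro W hW hW0
      obtain ⟨x, hx, hx0⟩ := Submodule.exists_mem_ne_zero_of_ne_bot hW0
      obtain ⟨d, rfl⟩ := exists_pair hA hB hx0
      have hU : finrank F d.U = 2 * m := by have := d.finrank_U; omega
      have hle := (isoSum_value m d.form_alt d.form_nondeg hU _ (d.ti_down hW)).1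
      rw [numFix_up d hW hx, ih d.form_alt d.form_nondeg hU _ (d.ti_down hW),
        Module.natCard_eq_pow_finrank (K := F) (V := d.form.orthogonal (d.down W)),
        LinearMap.BilinForm.finrank_orthogonal d.form_nondeg, hU, d.finrank_down hW hx, ← pow_succ', ← pow_add]
      congr 1
      obtain ⟨j, rfl⟩ := Nat.exists_eq_add_of_le hle
      simp only [expo, Nat.add_sub_cancel_left, Nat.add_sub_add_right,
        Nat.choose_succ_succ' (finrank F (d.down W) + 1) 1, Nat.choose_one_right]
      rw [show 2 * (finrank F (d.down W) + j) - finrank F (d.down W) = finrank F (d.down W) + 2 * j by omega]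
      ring
    intro W hW
    by_cases hW0 : W = ⊥
    swap
    · exact hnz W hW hW0
    subst hW0
    classical
    haveI := finite_submodules (F := F) (V := V)
    haveI := Fintype.ofFinite (Submodule F V)
    haveI : Finite (V ≃ₗ[F] V) := Finite.of_injective _ DFunLike.coe_injective
    haveI := Fintype.ofFinite (V ≃ₗ[F] V)
    obtain ⟨S, hS⟩ : ∃ S, S = Finset.univ.filter (fun W : Submodule F V => TI B W) := ⟨_, rfl⟩
    have h1mem : (1 : V ≃ₗ[F] V) ∈ Finset.univ.filter (IsUnip B) := by
      simp only [Finset.mem_filter, Finset.mem_univ, true_and]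
      exact ⟨fun x y => rfl, ⟨1, by rw [pow_one]; exact sub_self _⟩⟩
    -- double count
    have hdc : ∑ W ∈ S, wt F (finrank F W) * (numFix B W : ℤ) = isoSum B ⊥ := by
      have e : ∀ W ∈ S, wt F (finrank F W) * (numFix B W : ℤ) =
          ∑ u ∈ Finset.univ.filter (IsUnip B), if ∀ x ∈ W, u x = x then wt F (finrank F W) else 0 := by
        intro W _
        rw [← Finset.sum_filter, Finset.sum_eq_card_nsmul (b := wt F (finrank F W)) fun _ _ => rfl,
          nsmul_eq_mul, mul_comm, numFix, Nat.card_eq_fintype_card, Fintype.card_subtype, Finset.filter_filter]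
      rw [Finset.sum_congr rfl e, Finset.sum_comm, ← Finset.add_sum_erase _ _ h1mem, isoSum_eq]
      simp only [LinearEquiv.coe_one, id_eq, implies_true, if_true, bot_le, true_and, finrank_bot, Nat.sub_zero]
      rw [hS, add_eq_left]
      refine Finset.sum_eq_zero fun u hu => ?_
      simp only [Finset.mem_erase, Finset.mem_filter, Finset.mem_univ, true_and] at hu
      rw [← Finset.sum_filter, Finset.filter_filter]
      exact fixed_sum_eq hA u hu.2 hu.1
    have hbot : TI B (⊥ : Submodule F V) := hW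
    obtain ⟨-, hval⟩ := isoSum_value (m + 1) hA hB hn ⊥ hbot
    rw [finrank_bot, Nat.sub_zero] at hval
    have hsq := square_sum (B := B) hA hB hn
    have hmem : (⊥ : Submodule F V) ∈ S := by simp [hS, hbot]
    have hterm : ∀ W ∈ S, wt F (finrank F W) * (Nat.card F : ℤ) ^ expo (m + 1) (finrank F W) =
        (Nat.card F : ℤ) ^ ((m + 1) ^ 2) *
          ((-1) ^ finrank F W * (Nat.card F : ℤ) ^ ((m + 1 - finrank F W) ^ 2)) := by
      intro W hW
      rw [hS, Finset.mem_filter] at hW
      obtain ⟨hle, -⟩ := isoSum_value (m + 1) hA hB hn W hW.2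
      obtain ⟨j, hj⟩ := Nat.exists_eq_add_of_le hle
      rw [hj, expo, Nat.add_sub_cancel_left, wt, mul_assoc, ← pow_add, mul_left_comm, ← pow_add]
      congr 2
      have hc : (finrank F W).choose 2 + (finrank F W + 1).choose 2 = finrank F W ^ 2 := by
        generalize finrank F W = k
        induction k with
        | zero => rfl
        | succ k ih =>
          rw [Nat.choose_succ_succ' (k + 1) 1, Nat.choose_one_right]
          have := Nat.choose_succ_succ' k 1
          rw [Nat.choose_one_right] at this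
          nlinarith
      nlinarith [hc]
    have hall : ∑ W ∈ S, wt F (finrank F W) * (Nat.card F : ℤ) ^ expo (m + 1) (finrank F W) = isoSum B ⊥ := by
      rw [Finset.sum_congr rfl hterm, ← Finset.mul_sum, hS, hsq, hval]
      ring
    have hdiff := hdc.trans hall.symm
    rw [← Finset.add_sum_erase _ _ hmem, ← Finset.add_sum_erase _ _ hmem] at hdiff
    have herase : ∀ W ∈ S.erase ⊥, wt F (finrank F W) * (numFix B W : ℤ) =
        wt F (finrank F W) * (Nat.card F : ℤ) ^ expo (m + 1) (finrank F W) := by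
      intro W hW
      rw [hS, Finset.mem_erase, Finset.mem_filter] at hW
      rw [hnz W hW.2.2 hW.1]
      push_cast
      rfl
    rw [Finset.sum_congr rfl herase, finrank_bot, wt_zero, one_mul, one_mul] at hdiff
    rw [finrank_bot]
    exact_mod_cast add_right_cancel hdiff

theorem card_unip {V : Type v} [AddCommGroup V] [Module F V] [Finite V] {B : LinearMap.BilinForm F V}
    (hA : B.IsAlt) (hB : B.Nondegenerate) {m : ℕ} (hn : finrank F V = 2 * m) :
    Nat.card {u : V ≃ₗ[F] V // IsUnip B u} = Nat.card F ^ (2 * m ^ 2) := by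
  have h := numFix_value m hA hB hn ⊥ (fun x hx y _ => by
    rw [(Submodule.mem_bot F).1 hx, map_zero, LinearMap.zero_apply])
  rw [finrank_bot] at h
  rw [show 2 * m ^ 2 = expo m 0 by simp [expo], ← h, numFix]
  exact Nat.card_congr (Equiv.subtypeEquivRight fun u =>
    ⟨fun hu => ⟨hu, fun x hx => by rw [(Submodule.mem_bot F).1 hx, map_zero]⟩, fun hu => hu.1⟩)

end Cfsg.Agent.Dickson.SpUnip
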