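import Cfsg.Agent.Dickson.SpUnipSums

/-!
A hyperbolic pair in a symplectic space and the space orthogonal to it: totally isotropic subspaces and
unipotent isometries seen through the smaller space.
-/

set_option autoImplicit false
set_option linter.unusedSectionVars false
set_option linter.style.haveILetI false

namespace Cfsg.Agent.Dickson.SpUnip

open Module

variable {F V : Type*} [Field F] [AddCommGroup V] [Module F V]

/-- A totally isotropic subspace. -/
def TI (B : LinearMap.BilinForm F V) (W : Submodule F V) : Prop := ∀ x ∈ W, ∀ y ∈ W, B x y = 0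

/-- A unipotent isometry. -/
def IsUnip (B : LinearMap.BilinForm F V) (u : V ≃ₗ[F] V) : Prop :=
  (∀ x y, B (u x) (u y) = B x y) ∧ IsNilpotent ((u : Module.End F V) - 1)

/-- The number of unipotent isometries fixing `W` pointwise. -/
noncomputable def numFix (B : LinearMap.BilinForm F V) (W : Submodule F V) : ℕ :=
  Nat.card {u : V ≃ₗ[F] V // IsUnip B u ∧ ∀ x ∈ W, u x = x}

theorem TI.mono {B : LinearMap.BilinForm F V} {W X : Submodule F V} (h : TI B X) (hle : W ≤ X) : TI B W :=
  fun x hx y hy => h x (hle hx) y (hle hy)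

theorem isNilpotent_sub_one_iff (u : V ≃ₗ[F] V) :
    IsNilpotent ((u : Module.End F V) - 1) ↔ ∃ k : ℕ, ∀ x : V, (((u : Module.End F V) - 1) ^ k) x = 0 := by
  constructor
  · rintro ⟨k, hk⟩
    exact ⟨k, fun x => by rw [hk, LinearMap.zero_apply]⟩
  · rintro ⟨k, hk⟩
    exact ⟨k, LinearMap.ext hk⟩

/-- A non-degenerate alternating form with a hyperbolic pair. -/
structure Pair (B : LinearMap.BilinForm F V) where
  isAlt : B.IsAlt
  nondeg : B.Nondegenerate
  v : V
  w : V
  hvw : B v w = 1

variable {B : LinearMap.BilinForm F V}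

theorem exists_pair (hA : B.IsAlt) (hB : B.Nondegenerate) {v : V} (hv : v ≠ 0) :
    ∃ d : Pair B, d.v = v := by
  obtain ⟨y, hy⟩ : ∃ y, B v y ≠ 0 := by
    by_contra h
    push Not at h
    exact hv (hB.1 v h)
  exact ⟨⟨hA, hB, v, (B v y)⁻¹ • y, by rw [map_smul, smul_eq_mul, inv_mul_cancel₀ hy]⟩, rfl⟩

namespace Pair

variable (d : Pair B)

/-- The orthogonal space of the pair. -/
def U : Submodule F V := LinearMap.ker (B d.v) ⊓ LinearMap.ker (B d.w)

theorem hwv : B d.w d.v = -1 := by rw [← d.isAlt.neg_eq, d.hvw]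

theorem v_ne : d.v ≠ 0 := fun h => by
  have := d.hvw
  rw [h, map_zero, LinearMap.zero_apply] at this
  exact zero_ne_one this

theorem mem_U {x : V} : x ∈ d.U ↔ B d.v x = 0 ∧ B d.w x = 0 := by
  simp [U, LinearMap.mem_ker]

theorem vU (x : d.U) : B d.v x = 0 := (d.mem_U.1 x.2).1
theorem wU (x : d.U) : B d.w x = 0 := (d.mem_U.1 x.2).2
theorem Uv (x : d.U) : B x d.v = 0 := by rw [← d.isAlt.neg_eq, d.vU, neg_zero]
theorem Uw (x : d.U) : B x d.w = 0 := by rw [← d.isAlt.neg_eq, d.wU, neg_zero]

/-- The component in the orthogonal space. -/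
def proj : V →ₗ[F] d.U :=
  LinearMap.codRestrict d.U (LinearMap.id - (B.flip d.w).smulRight d.v - (B d.v).smulRight d.w) fun x => by
    rw [d.mem_U]
    simp only [LinearMap.sub_apply, LinearMap.id_apply, LinearMap.smulRight_apply, LinearMap.BilinForm.flip_apply,
      map_sub, map_smul, smul_eq_mul, d.hvw, d.hwv, d.isAlt.self_eq_zero]
    constructor
    · ring
    · rw [← d.isAlt.neg_eq x d.w]; ring

theorem coe_proj (x : V) : (d.proj x : V) = x - B x d.w • d.v - B d.v x • d.w := rfl

theorem decomp (x : V) : x = B x d.w • d.v + B d.v x • d.w + d.proj x := by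
  rw [d.coe_proj]; abel

/-- The value of the form in coordinates. -/
theorem form_eq (a b a' b' : F) (x x' : d.U) :
    B (a • d.v + b • d.w + x) (a' • d.v + b' • d.w + x') = a * b' - b * a' + B (x : V) (x' : V) := by
  simp only [map_add, LinearMap.add_apply, map_smul, LinearMap.smul_apply, smul_eq_mul, d.hvw, d.hwv,
    d.isAlt.self_eq_zero, d.vU, d.wU, d.Uv, d.Uw]
  ring

theorem coord_v (a b : F) (x : d.U) : B d.v (a • d.v + b • d.w + (x : V)) = b := by
  simp [d.hvw, d.isAlt.self_eq_zero, d.vU]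

theorem coord_w (a b : F) (x : d.U) : B (a • d.v + b • d.w + (x : V)) d.w = a := by
  simp [d.hvw, d.isAlt.self_eq_zero, d.Uw]

theorem proj_coord (a b : F) (x : d.U) : d.proj (a • d.v + b • d.w + (x : V)) = x := by
  refine Subtype.ext ?_
  rw [d.coe_proj, d.coord_v, d.coord_w]
  abel

theorem proj_U (x : d.U) : d.proj (x : V) = x := by
  simpa using d.proj_coord 0 0 x

theorem proj_v : d.proj d.v = 0 := by
  simpa using d.proj_coord 1 0 0

/-- The form on the orthogonal space. -/
def form : LinearMap.BilinForm F d.U := B.compl₁₂ d.U.subtype d.U.subtype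

theorem form_apply (x y : d.U) : d.form x y = B (x : V) (y : V) := rfl

theorem form_alt : d.form.IsAlt := fun x => d.isAlt.self_eq_zero _

theorem form_nondeg : d.form.Nondegenerate := by
  have h : ∀ x : d.U, (∀ y : d.U, B (x : V) (y : V) = 0) → x = 0 := by
    intro x hx
    refine Subtype.ext (d.nondeg.1 _ fun y => ?_)
    rw [d.decomp y, map_add, map_add, map_smul, map_smul, d.Uv, d.Uw, hx, smul_zero, smul_zero, add_zero,
      add_zero]
  refine ⟨h, fun y hy => h y fun x => ?_⟩
  rw [← d.isAlt.neg_eq, show B (x : V) (y : V) = 0 from hy x, neg_zero]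

/-- Coordinates for the pair. -/
noncomputable def coords : ((F × F) × d.U) ≃ₗ[F] V :=
  LinearEquiv.ofBijective
    (((LinearMap.fst F F F).smulRight d.v + (LinearMap.snd F F F).smulRight d.w).coprod d.U.subtype)
    ⟨fun p p' h => by
      simp only [LinearMap.coprod_apply, LinearMap.add_apply, LinearMap.smulRight_apply, LinearMap.fst_apply,
        LinearMap.snd_apply, Submodule.subtype_apply] at h
      obtain ⟨⟨a, b⟩, x⟩ := p
      obtain ⟨⟨a', b'⟩, x'⟩ := p'
      have h1 := congrArg (fun z => B z d.w) h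
      have h2 := congrArg (fun z => B d.v z) h
      have h3 := congrArg d.proj h
      simp only [d.coord_w] at h1
      simp only [d.coord_v] at h2
      simp only [d.proj_coord] at h3
      rw [h1, h2, h3],
    fun x => ⟨((B x d.w, B d.v x), d.proj x), (d.decomp x).symm⟩⟩

theorem finrank_U [FiniteDimensional F V] : finrank F d.U + 2 = finrank F V := by
  rw [← d.coords.finrank_eq, Module.finrank_prod, Module.finrank_prod, Module.finrank_self]
  omega

/-- The trace on the orthogonal space of a subspace through `v`. -/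
def down (W : Submodule F V) : Submodule F d.U := W.comap d.U.subtype

/-- The subspace through `v` with given trace. -/
def up (X : Submodule F d.U) : Submodule F V := Submodule.span F {d.v} ⊔ X.map d.U.subtype

theorem mem_down {W : Submodule F V} {x : d.U} : x ∈ d.down W ↔ (x : V) ∈ W := Iff.rfl

theorem ti_down {W : Submodule F V} (h : TI B W) : TI d.form (d.down W) :=
  fun x hx y hy => h _ hx _ hy

theorem coord_zero {W : Submodule F V} (h : TI B W) (hv : d.v ∈ W) {x : V} (hx : x ∈ W) : B d.v x = 0 :=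
  h _ hv _ hx

theorem v_mem_up (X : Submodule F d.U) : d.v ∈ d.up X :=
  Submodule.mem_sup_left (Submodule.mem_span_singleton_self _)

theorem mem_up {X : Submodule F d.U} {x : V} : x ∈ d.up X ↔ ∃ c : F, ∃ y ∈ X, x = c • d.v + (y : V) := by
  rw [up, Submodule.mem_sup]
  constructor
  · rintro ⟨a, ha, b, ⟨y, hy, rfl⟩, rfl⟩
    obtain ⟨c, rfl⟩ := Submodule.mem_span_singleton.1 ha
    exact ⟨c, y, hy, rfl⟩
  · rintro ⟨c, y, hy, rfl⟩
    exact ⟨_, Submodule.smul_mem _ c (Submodule.mem_span_singleton_self _), _, ⟨y, hy, rfl⟩, rfl⟩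

theorem ti_up {X : Submodule F d.U} (h : TI d.form X) : TI B (d.up X) := by
  intro x hx y hy
  obtain ⟨c, x', hx', rfl⟩ := d.mem_up.1 hx
  obtain ⟨c', y', hy', rfl⟩ := d.mem_up.1 hy
  have := d.form_eq c 0 c' 0 x' y'
  simp only [zero_smul, add_zero, mul_zero, zero_mul, sub_zero, zero_add] at this
  rw [this]
  exact h x' hx' y' hy'

theorem up_down {W : Submodule F V} (h : TI B W) (hv : d.v ∈ W) : d.up (d.down W) = W := by
  ext x
  rw [d.mem_up]
  constructor
  · rintro ⟨c, y, hy, rfl⟩
    exact add_mem (W.smul_mem c hv) hy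
  · intro hx
    have hd := d.decomp x
    rw [d.coord_zero h hv hx, zero_smul, add_zero] at hd
    refine ⟨_, d.proj x, ?_, hd⟩
    rw [d.mem_down, show (d.proj x : V) = x - B x d.w • d.v by rw [eq_sub_iff_add_eq']; exact hd.symm]
    exact sub_mem hx (W.smul_mem _ hv)

theorem down_up (X : Submodule F d.U) : d.down (d.up X) = X := by
  ext x
  rw [d.mem_down, d.mem_up]
  constructor
  · rintro ⟨c, y, hy, h⟩
    have h3 := congrArg d.proj h
    rw [d.proj_U, map_add, map_smul, d.proj_v, smul_zero, zero_add, d.proj_U] at h3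
    rwa [h3]
  · exact fun hx => ⟨0, x, hx, by simp⟩

theorem finrank_up [FiniteDimensional F V] (X : Submodule F d.U) :
    finrank F (d.up X) = finrank F X + 1 := by
  have hinj : Function.Injective (((LinearMap.id : F →ₗ[F] F).smulRight d.v).coprod
      (d.U.subtype.comp X.subtype)) := by
    rw [← LinearMap.ker_eq_bot, eq_bot_iff]
    rintro ⟨c, x⟩ hx
    rw [LinearMap.mem_ker] at hx
    simp only [LinearMap.coprod_apply, LinearMap.smulRight_apply, LinearMap.id_apply, LinearMap.comp_apply,
      Submodule.subtype_apply] at hx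
    have h1 := congrArg (fun z => B z d.w) hx
    simp only [map_add, LinearMap.add_apply, map_smul, LinearMap.smul_apply, d.hvw, d.Uw, smul_eq_mul,
      mul_one, add_zero, map_zero, LinearMap.zero_apply] at h1
    subst h1
    rw [zero_smul, zero_add] at hx
    exact Prod.ext rfl (Subtype.ext (Subtype.ext hx))
  have e : LinearMap.range (((LinearMap.id : F →ₗ[F] F).smulRight d.v).coprod
      (d.U.subtype.comp X.subtype)) = d.up X := by
    ext x
    rw [LinearMap.mem_range, d.mem_up]
    constructor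
    · rintro ⟨⟨c, y⟩, rfl⟩
      exact ⟨c, y, y.2, rfl⟩
    · rintro ⟨c, y, hy, rfl⟩
      exact ⟨(c, ⟨y, hy⟩), rfl⟩
  rw [← e, LinearMap.finrank_range_of_inj hinj, Module.finrank_prod, Module.finrank_self, add_comm]

theorem finrank_down [FiniteDimensional F V] {W : Submodule F V} (h : TI B W) (hv : d.v ∈ W) :
    finrank F W = finrank F (d.down W) + 1 := by
  conv_lhs => rw [← d.up_down h hv]
  exact d.finrank_up _

/-- The vectors `x + B(x, z) v` and `w + a v + z` span an isotropic subspace off `ker (B v)`. -/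
def off (X : Submodule F d.U) (a : F) (z : d.U) : Submodule F V :=
  LinearMap.range ((d.U.subtype.comp X.subtype -
      ((B.flip (z : V)).comp (d.U.subtype.comp X.subtype)).smulRight d.v).coprod
    ((LinearMap.id : F →ₗ[F] F).smulRight (a • d.v + (1 : F) • d.w + (z : V))))

theorem mem_off {X : Submodule F d.U} {a : F} {z : d.U} {x : V} :
    x ∈ d.off X a z ↔ ∃ y ∈ X, ∃ c : F, x =
      (c * a - B (y : V) (z : V)) • d.v + c • d.w + ((y + c • z : d.U) : V) := by
  rw [off, LinearMap.mem_range]
  constructor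
  · rintro ⟨⟨y, c⟩, rfl⟩
    refine ⟨y, y.2, c, ?_⟩
    simp only [LinearMap.coprod_apply, LinearMap.sub_apply, LinearMap.comp_apply, Submodule.subtype_apply,
      LinearMap.smulRight_apply, LinearMap.BilinForm.flip_apply, LinearMap.id_apply, Submodule.coe_add,
      Submodule.coe_smul, one_smul, smul_add, smul_smul, sub_smul]
    abel
  · rintro ⟨y, hy, c, rfl⟩
    refine ⟨(⟨y, hy⟩, c), ?_⟩
    simp only [LinearMap.coprod_apply, LinearMap.sub_apply, LinearMap.comp_apply, Submodule.subtype_apply,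
      LinearMap.smulRight_apply, LinearMap.BilinForm.flip_apply, LinearMap.id_apply, Submodule.coe_add,
      Submodule.coe_smul, one_smul, smul_add, smul_smul, sub_smul]
    abel

theorem finrank_off [FiniteDimensional F V] (X : Submodule F d.U) (a : F) (z : d.U) :
    finrank F (d.off X a z) = finrank F X + 1 := by
  rw [off, LinearMap.finrank_range_of_inj, Module.finrank_prod, Module.finrank_self]
  rw [← LinearMap.ker_eq_bot, eq_bot_iff]
  rintro ⟨y, c⟩ hx
  rw [LinearMap.mem_ker] at hx
  simp only [LinearMap.coprod_apply, LinearMap.sub_apply, LinearMap.comp_apply, Submodule.subtype_apply,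
    LinearMap.smulRight_apply, LinearMap.BilinForm.flip_apply, LinearMap.id_apply] at hx
  have h1 := congrArg (fun x => B d.v x) hx
  simp only [map_add, map_sub, map_smul, d.vU, d.hvw, d.isAlt.self_eq_zero, smul_eq_mul, map_zero,
    mul_zero, sub_zero, zero_add, add_zero, mul_one] at h1
  subst h1
  rw [zero_smul, add_zero] at hx
  have h3 := congrArg d.proj hx
  rw [map_sub, map_smul, d.proj_v, smul_zero, sub_zero, d.proj_U, map_zero] at h3
  exact Prod.ext (Subtype.ext h3) rfl

theorem ti_off {X : Submodule F d.U} (h : TI d.form X) (a : F) (z : d.U) : TI B (d.off X a z) := by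
  intro x hx x' hx'
  obtain ⟨y, hy, c, rfl⟩ := d.mem_off.1 hx
  obtain ⟨y', hy', c', rfl⟩ := d.mem_off.1 hx'
  rw [d.form_eq]
  simp only [Submodule.coe_add, Submodule.coe_smul, map_add, LinearMap.add_apply, map_smul,
    LinearMap.smul_apply, smul_eq_mul, d.isAlt.self_eq_zero]
  rw [show B (y : V) (y' : V) = 0 from h y hy y' hy', ← d.isAlt.neg_eq (y' : V) (z : V)]
  ring

theorem off_not_le (X : Submodule F d.U) (a : F) (z : d.U) : ¬ d.off X a z ≤ LinearMap.ker (B d.v) := by
  intro h
  have h1 := h (d.mem_off.2 ⟨0, X.zero_mem, 1, rfl⟩)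
  rw [LinearMap.mem_ker, d.coord_v] at h1
  exact one_ne_zero h1

theorem off_eq_iff {X X' : Submodule F d.U} (hX : TI d.form X) (a a' : F) (z z' : d.U) :
    d.off X' a' z' = d.off X a z ↔ X' = X ∧ z' - z ∈ X ∧ a' = a - B (z' : V) (z : V) := by
  constructor
  · intro h
    have key : ∀ {P P' : Submodule F d.U} {b b' : F} {t t' : d.U}, d.off P' b' t' = d.off P b t →
        P' ≤ P := by
      intro P P' b b' t t' h y hy
      have hm := (d.mem_off (a := b') (z := t')).2 ⟨y, hy, 0, rfl⟩
      rw [h] at hm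
      obtain ⟨y₁, hy₁, c, e⟩ := d.mem_off.1 hm
      have e2 := congrArg (fun x => B d.v x) e
      simp only [d.coord_v] at e2
      have e3 := congrArg d.proj e
      simp only [d.proj_coord] at e3
      rw [← e2, zero_smul, add_zero, zero_smul, add_zero] at e3
      rwa [e3]
    have hXX : X' = X := le_antisymm (key h) (key h.symm)
    have hm := (d.mem_off (a := a') (z := z')).2 ⟨0, X'.zero_mem, 1, rfl⟩
    rw [h] at hm
    obtain ⟨y, hy, c, e⟩ := d.mem_off.1 hm
    have e1 := congrArg (fun x => B x d.w) e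
    have e2 := congrArg (fun x => B d.v x) e
    have e3 := congrArg d.proj e
    simp only [d.coord_w, d.coord_v, d.proj_coord] at e1 e2 e3
    subst e2
    rw [zero_add, one_smul, one_smul] at e3
    refine ⟨hXX, by rw [e3, add_sub_cancel_right]; exact hy, ?_⟩
    rw [e3]
    simp only [Submodule.coe_zero, map_zero, LinearMap.zero_apply, one_mul, sub_zero] at e1
    rw [e1, Submodule.coe_add, map_add, LinearMap.add_apply, d.isAlt.self_eq_zero, add_zero]
  · rintro ⟨rfl, hz, rfl⟩
    obtain ⟨y₀, hy₀, rfl⟩ : ∃ y₀ ∈ X', z' = y₀ + z := ⟨z' - z, hz, by abel⟩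
    have hyy : ∀ y ∈ X', B (y : V) (y₀ : V) = 0 := fun y hy => hX y hy y₀ hy₀
    ext x
    rw [d.mem_off, d.mem_off]
    constructor
    · rintro ⟨y, hy, c, rfl⟩
      refine ⟨y + c • y₀, add_mem hy (X'.smul_mem c hy₀), c, ?_⟩
      simp only [Submodule.coe_add, Submodule.coe_smul, map_add, LinearMap.add_apply, map_smul,
        LinearMap.smul_apply, smul_eq_mul, d.isAlt.self_eq_zero, hyy y hy]
      congr 1
      · congr 2; ring
      · rw [smul_add]; abel
    · rintro ⟨y, hy, c, rfl⟩
      refine ⟨y - c • y₀, sub_mem hy (X'.smul_mem c hy₀), c, ?_⟩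
      simp only [Submodule.coe_add, Submodule.coe_smul, Submodule.coe_sub, map_add, map_sub,
        LinearMap.add_apply, LinearMap.sub_apply, map_smul,
        LinearMap.smul_apply, smul_eq_mul, d.isAlt.self_eq_zero, hyy y hy]
      congr 1
      · congr 2; ring
      · rw [smul_add]; abel

theorem exists_off {W : Submodule F V} (h : TI B W) (hv : ¬ W ≤ LinearMap.ker (B d.v)) :
    ∃ X a z, TI d.form X ∧ d.off X a z = W := by
  obtain ⟨x₀, hx₀, hb⟩ : ∃ x ∈ W, B d.v x = 1 := by
    obtain ⟨x, hx, hb⟩ := SetLike.not_le_iff_exists.1 hv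
    exact ⟨(B d.v x)⁻¹ • x, W.smul_mem _ hx, by rw [map_smul, smul_eq_mul, inv_mul_cancel₀ hb]⟩
  obtain ⟨a, ha⟩ : ∃ a, a = B x₀ d.w := ⟨_, rfl⟩
  obtain ⟨z, hz⟩ : ∃ z, z = d.proj x₀ := ⟨_, rfl⟩
  have hx₀d : x₀ = a • d.v + (1 : F) • d.w + (z : V) := by rw [ha, hz, ← hb]; exact d.decomp x₀
  have hform : ∀ x ∈ W, B d.v x = 0 → x = (- B (d.proj x : V) (z : V)) • d.v + (d.proj x : V) := by
    intro x hx h0
    have hd := d.decomp x
    rw [h0, zero_smul, add_zero] at hd
    have hx0 : B x x₀ = 0 := h x hx x₀ hx₀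
    have := d.form_eq (B x d.w) 0 a 1 (d.proj x) z
    rw [zero_smul, add_zero, ← hd, ← hx₀d, hx0, mul_one, zero_mul, sub_zero] at this
    rw [show B x d.w = - B (d.proj x : V) (z : V) by linear_combination -this] at hd
    exact hd
  refine ⟨(W ⊓ LinearMap.ker (B d.v)).map d.proj, a, z, ?_, ?_⟩
  · rintro _ ⟨x, ⟨hx, hxv⟩, rfl⟩ _ ⟨x', ⟨hx', hxv'⟩, rfl⟩
    have h1 := hform x hx hxv
    have h2 := hform x' hx' hxv'
    have := h x hx x' hx'
    rw [h1, h2] at this
    have e := d.form_eq (- B (d.proj x : V) (z : V)) 0 (- B (d.proj x' : V) (z : V)) 0 (d.proj x) (d.proj x')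
    rw [zero_smul, add_zero, add_zero, this] at e
    simpa [d.form_apply] using e.symm
  · refine le_antisymm ?_ ?_
    · intro x hx
      obtain ⟨_, ⟨y, ⟨hy, hyv⟩, rfl⟩, c, rfl⟩ := d.mem_off.1 hx
      have h1 := hform y hy hyv
      have : (c * a - B (d.proj y : V) (z : V)) • d.v + c • d.w + ((d.proj y + c • z : d.U) : V) =
          y + c • x₀ := by
        conv_rhs => rw [h1, hx₀d]
        simp only [smul_add, smul_smul, Submodule.coe_add, Submodule.coe_smul, sub_smul, neg_smul, mul_one]
        abel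
      rw [this]
      exact add_mem hy (W.smul_mem c hx₀)
    · intro x hx
      have hy : x - B d.v x • x₀ ∈ W := sub_mem hx (W.smul_mem _ hx₀)
      have hy0 : B d.v (x - B d.v x • x₀) = 0 := by rw [map_sub, map_smul, hb, smul_eq_mul, mul_one, sub_self]
      refine d.mem_off.2 ⟨d.proj (x - B d.v x • x₀), ⟨_, ⟨hy, hy0⟩, rfl⟩, B d.v x, ?_⟩
      have h1 := hform _ hy hy0
      refine ((sub_add_cancel x (B d.v x • x₀)).symm.trans
        (congrArg₂ (· + ·) h1 (congrArg (B d.v x • ·) hx₀d))).trans ?_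
      simp only [smul_add, smul_smul, Submodule.coe_add, Submodule.coe_smul, sub_smul, neg_smul, mul_one]
      abel

/-- The isometry with given data fixing `v`. -/
def liftMap (g : d.U ≃ₗ[F] d.U) (y : d.U) (a : F) : V →ₗ[F] V :=
  (B.flip d.w + a • B d.v - (B.flip (y : V)).comp (d.U.subtype.comp (g.toLinearMap.comp d.proj))).smulRight d.v
    + (B d.v).smulRight d.w + d.U.subtype.comp ((B d.v).smulRight y + g.toLinearMap.comp d.proj)

theorem liftMap_apply (g : d.U ≃ₗ[F] d.U) (y : d.U) (a : F) (x : V) : d.liftMap g y a x =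
    (B x d.w + a * B d.v x - B (g (d.proj x) : V) (y : V)) • d.v + B d.v x • d.w +
      ((B d.v x • y + g (d.proj x) : d.U) : V) := rfl

theorem liftMap_isometry (g : d.U ≃ₗ[F] d.U) (hg : ∀ x x', d.form (g x) (g x') = d.form x x') (y : d.U)
    (a : F) (x x' : V) : B (d.liftMap g y a x) (d.liftMap g y a x') = B x x' := by
  rw [d.liftMap_apply, d.liftMap_apply, d.form_eq]
  conv_rhs => rw [d.decomp x, d.decomp x', d.form_eq]
  have h1 : B (g (d.proj x) : V) (g (d.proj x') : V) = B (d.proj x : V) (d.proj x' : V) := hg _ _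
  simp only [Submodule.coe_add, Submodule.coe_smul, map_add, LinearMap.add_apply, map_smul,
    LinearMap.smul_apply, smul_eq_mul, d.isAlt.self_eq_zero, h1]
  rw [← d.isAlt.neg_eq (g (d.proj x') : V) (y : V)]
  ring

/-- The isometry with given data, as an equivalence. -/
noncomputable def lift [FiniteDimensional F V] (g : d.U ≃ₗ[F] d.U)
    (hg : ∀ x x', d.form (g x) (g x') = d.form x x') (y : d.U) (a : F) : V ≃ₗ[F] V :=
  LinearEquiv.ofInjectiveEndo (d.liftMap g y a) (fun x x' h => by
    refine sub_eq_zero.1 (d.nondeg.1 _ fun z => ?_)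
    rw [← d.liftMap_isometry g hg y a, map_sub, h, sub_self, map_zero, LinearMap.zero_apply])

theorem lift_apply [FiniteDimensional F V] (g : d.U ≃ₗ[F] d.U)
    (hg : ∀ x x', d.form (g x) (g x') = d.form x x') (y : d.U) (a : F) (x : V) :
    d.lift g hg y a x = d.liftMap g y a x := rfl

theorem lift_v [FiniteDimensional F V] (g : d.U ≃ₗ[F] d.U)
    (hg : ∀ x x', d.form (g x) (g x') = d.form x x') (y : d.U) (a : F) : d.lift g hg y a d.v = d.v := by
  rw [d.lift_apply, d.liftMap_apply, d.proj_v, map_zero, d.hvw, d.isAlt.self_eq_zero]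
  simp

theorem lift_U [FiniteDimensional F V] (g : d.U ≃ₗ[F] d.U)
    (hg : ∀ x x', d.form (g x) (g x') = d.form x x') (y : d.U) (a : F) (x : d.U) :
    d.lift g hg y a x = (- B (g x : V) (y : V)) • d.v + (g x : V) := by
  rw [d.lift_apply, d.liftMap_apply, d.proj_U, d.vU, d.Uw]
  simp

end Pair

end Cfsg.Agent.Dickson.SpUnip
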