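import Mathlib

/-!
Alternating sums over subspaces of a finite vector space, weighted by `(-1)^k q^(k(k-1)/2)`.
-/

set_option autoImplicit false
set_option linter.unusedSectionVars false
set_option linter.style.haveILetI false

namespace Cfsg.Agent.Dickson.SpUnip

open Module

variable {F V : Type*} [Field F] [AddCommGroup V] [Module F V]

/-- The weight of a subspace of dimension `k`. -/
noncomputable def wt (F : Type*) (k : ℕ) : ℤ := (-1) ^ k * (Nat.card F : ℤ) ^ k.choose 2

theorem wt_zero : wt F 0 = 1 := by simp [wt]

theorem wt_succ (k : ℕ) : wt F (k + 1) = - ((Nat.card F : ℤ) ^ k * wt F k) := by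
  simp only [wt, Nat.choose_succ_succ', Nat.choose_one_right, pow_succ, pow_add]
  ring

theorem finite_submodules [Finite V] : Finite (Submodule F V) :=
  Finite.of_injective _ SetLike.coe_injective

theorem span_finrank {r : V} (hr : r ≠ 0) : finrank F (Submodule.span F {r}) = 1 :=
  finrank_span_singleton hr

theorem card_complements [Finite F] [Finite V] (R : Submodule F V) :
    Nat.card {W : Submodule F V // IsCompl R W} =
      Nat.card F ^ ((finrank F V - finrank F R) * finrank F R) := by
  classical
  haveI : Module.Finite F V := Module.Finite.of_finite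
  obtain ⟨S, hS⟩ := Submodule.exists_isCompl R
  let f0 := R.projectionOnto S hS
  have hf0 : ∀ x : R, f0 x = x := fun x => Submodule.projectionOnto_apply_left hS x
  rw [Nat.card_congr (Submodule.isComplEquivProj R)]
  have e : {f : V →ₗ[F] R // ∀ x : R, f x = x} ≃ (V ⧸ R →ₗ[F] R) :=
    { toFun := fun f => R.liftQ (f.1 - f0) (fun x hx => by
        rw [LinearMap.mem_ker, LinearMap.sub_apply, f.2 ⟨x, hx⟩, hf0 ⟨x, hx⟩, sub_self])
      invFun := fun g => ⟨g.comp R.mkQ + f0, fun x => by
        rw [LinearMap.add_apply, LinearMap.comp_apply, Submodule.mkQ_apply,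
          (Submodule.Quotient.mk_eq_zero R).2 x.2, map_zero, zero_add, hf0]⟩
      left_inv := fun f => by
        ext x : 2
        simp
      right_inv := fun g => by
        refine Submodule.linearMap_qext R (LinearMap.ext fun x => ?_)
        simp }
  rw [Nat.card_congr e, Module.natCard_eq_pow_finrank (K := F), Module.finrank_linearMap,
    Submodule.finrank_quotient]

/-- The weights cancel over a family closed under adding a fixed line. -/
theorem sum_wt_eq_zero [Finite F] [Finite V] [Fintype (Submodule F V)] {r : V} (hr : r ≠ 0)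
    (P : Submodule F V → Prop) [DecidablePred P] (hP : ∀ W, P W ↔ P (W ⊔ Submodule.span F {r})) :
    ∑ W ∈ Finset.univ.filter P, wt F (finrank F W) = 0 := by
  classical
  haveI : Module.Finite F V := Module.Finite.of_finite
  set R := Submodule.span F {r} with hR
  rw [← Finset.sum_fiberwise_of_maps_to (g := fun W => W ⊔ R) (t := Finset.univ.filter fun X => P X ∧ R ≤ X)
    (fun W hW => by
      simp only [Finset.mem_filter, Finset.mem_univ, true_and] at hW ⊢
      exact ⟨(hP W).1 hW, le_sup_right⟩)]
  refine Finset.sum_eq_zero fun X hX => ?_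
  simp only [Finset.mem_filter, Finset.mem_univ, true_and] at hX
  obtain ⟨hPX, hRX⟩ := hX
  have hXmem : X ∈ (Finset.univ.filter P).filter fun W => W ⊔ R = X := by simp [hPX, hRX]
  rw [← Finset.add_sum_erase _ _ hXmem]
  have hrk : ∀ W ∈ ((Finset.univ.filter P).filter fun W => W ⊔ R = X).erase X,
      wt F (finrank F W) = wt F (finrank F X - 1) := by
    intro W hW
    simp only [Finset.mem_erase, Finset.mem_filter, Finset.mem_univ, true_and] at hW
    obtain ⟨hne, -, hsup⟩ := hW
    have hrW : r ∉ W := fun h => hne (by
      rw [← hsup, eq_comm, sup_eq_left, hR, Submodule.span_le]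
      exact Set.singleton_subset_iff.2 h)
    have hd : W ⊓ R = ⊥ := by
      rw [eq_bot_iff]
      intro x hx
      obtain ⟨c, rfl⟩ := Submodule.mem_span_singleton.1 hx.2
      by_cases hc : c = 0
      · simp [hc]
      · exact absurd (by simpa [hc] using W.smul_mem c⁻¹ hx.1) hrW
    have h := Submodule.finrank_sup_add_finrank_inf_eq W R
    rw [hsup, hd, finrank_bot, add_zero, hR, span_finrank hr] at h
    rw [h, Nat.add_sub_cancel]
  rw [Finset.sum_congr rfl hrk, Finset.sum_const, nsmul_eq_mul]
  have hx1 : 1 ≤ finrank F X := by
    have := Submodule.finrank_mono hRX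
    rwa [hR, span_finrank hr] at this
  have hcard : (((Finset.univ.filter P).filter fun W => W ⊔ R = X).erase X).card =
      Nat.card F ^ (finrank F X - 1) := by
    have h1 := card_complements (R.comap X.subtype)
    have hfR : finrank F (R.comap X.subtype) = 1 := by
      rw [(Submodule.comapSubtypeEquivOfLe hRX).finrank_eq, hR, span_finrank hr]
    rw [hfR, mul_one] at h1
    rw [← h1, ← Nat.card_eq_finsetCard]
    refine Nat.card_eq_of_bijective (fun W => (⟨(W.1).comap X.subtype, ?_⟩ :
      {W' : Submodule F X // IsCompl (R.comap X.subtype) W'})) ⟨?_, ?_⟩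
    · have hW := W.2
      simp only [Finset.mem_erase, Finset.mem_filter, Finset.mem_univ, true_and] at hW
      obtain ⟨hne, -, hsup⟩ := hW
      have hWX : W.1 ≤ X := le_sup_left.trans hsup.le
      refine ⟨?_, ?_⟩
      · rw [Submodule.disjoint_def]
        intro x hxR hxW
        obtain ⟨c, hc⟩ := Submodule.mem_span_singleton.1 (show (x : V) ∈ R from hxR)
        by_contra hx
        have hc0 : c ≠ 0 := fun h0 => hx (Subtype.ext (by rw [← hc, h0, zero_smul]; rfl))
        have hrW : r ∈ W.1 := by
          have := W.1.smul_mem c⁻¹ (show (x : V) ∈ W.1 from hxW)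
          rwa [← hc, smul_smul, inv_mul_cancel₀ hc0, one_smul] at this
        refine hne (Eq.trans ?_ hsup)
        rw [eq_comm, sup_eq_left]
        exact (Submodule.span_le.2 (Set.singleton_subset_iff.2 hrW) : _ ≤ W.1)
      · rw [codisjoint_iff, eq_top_iff]
        intro x _
        have hx : (x : V) ∈ W.1 ⊔ R := by rw [hsup]; exact x.2
        obtain ⟨a, ha, b, hb, hab⟩ := Submodule.mem_sup.1 hx
        refine Submodule.mem_sup.2 ⟨⟨b, hRX hb⟩, hb, ⟨a, hWX ha⟩, ha, Subtype.ext ?_⟩
        rw [← hab, add_comm]
        rfl
    · intro W W' h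
      have h' := congrArg Subtype.val h
      have le : ∀ U : {U // U ∈ ((Finset.univ.filter P).filter fun W => W ⊔ R = X).erase X},
          U.1 ≤ X := fun U => by
        have hU := U.2
        simp only [Finset.mem_erase, Finset.mem_filter] at hU
        exact le_sup_left.trans hU.2.2.le
      have h2 := congrArg (Submodule.map X.subtype) h'
      simp only [Submodule.map_comap_subtype, inf_eq_right.2 (le W), inf_eq_right.2 (le W')] at h2
      exact Subtype.ext h2
    · rintro ⟨W', hW'⟩
      refine ⟨⟨W'.map X.subtype, ?_⟩, Subtype.ext (Submodule.comap_map_eq_of_injective X.injective_subtype _)⟩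
      have hsup : W'.map X.subtype ⊔ R = X := by
        have h := congrArg (Submodule.map X.subtype) hW'.sup_eq_top
        rwa [Submodule.map_sup, Submodule.map_comap_subtype, inf_eq_right.2 hRX, Submodule.map_top,
          Submodule.range_subtype, sup_comm] at h
      simp only [Finset.mem_erase, Finset.mem_filter, Finset.mem_univ, true_and]
      refine ⟨fun h => ?_, (hP _).2 (by rwa [hsup]), hsup⟩
      have hle : R.comap X.subtype ≤ W' := by
        rw [← Submodule.comap_map_eq_of_injective X.injective_subtype W', h]
        exact Submodule.comap_mono hRX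
      have hbot := hW'.disjoint.eq_bot_of_le hle
      rw [hbot, finrank_bot] at hfR
      exact zero_ne_one hfR
  rw [hcard]
  obtain ⟨k, hk⟩ : ∃ k, finrank F X = k + 1 := ⟨finrank F X - 1, by omega⟩
  rw [hk, Nat.add_sub_cancel, wt_succ]
  push_cast
  ring

/-- The weights of all subspaces of a non-zero space cancel. -/
theorem sum_wt_all [Finite F] [Finite V] [Fintype (Submodule F V)] [Nontrivial V] :
    ∑ W : Submodule F V, wt F (finrank F W) = 0 := by
  classical
  obtain ⟨r, hr⟩ := exists_ne (0 : V)
  have h := sum_wt_eq_zero (F := F) hr (fun _ : Submodule F V => True) (fun _ => Iff.rfl)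
  simpa using h

/-- The weights of the codimensions of the subspaces of `X` cancel unless `X` is zero. -/
theorem sum_wt_codim [Finite F] [Finite V] [Fintype (Submodule F V)] (X : Submodule F V)
    [DecidablePred fun W => W ≤ X] :
    ∑ W ∈ Finset.univ.filter (fun W => W ≤ X), wt F (finrank F X - finrank F W) =
      if X = ⊥ then 1 else 0 := by
  classical
  haveI : Module.Finite F V := Module.Finite.of_finite
  split_ifs with hX
  · subst hX
    rw [show Finset.univ.filter (fun W : Submodule F V => W ≤ ⊥) = {⊥} from
      Finset.ext fun W => by simp, Finset.sum_singleton, finrank_bot, Nat.sub_zero, wt_zero]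
  haveI : Finite (Module.Dual F X) := Module.finite_of_finite F
  haveI : Fintype (Submodule F (Module.Dual F X)) := @Fintype.ofFinite _ finite_submodules
  haveI : Nontrivial (Module.Dual F X) := by
    refine Module.nontrivial_of_finrank_pos (R := F) ?_
    rw [Subspace.dual_finrank_eq]
    exact Nat.pos_of_ne_zero fun h => hX (Submodule.finrank_eq_zero.1 h)
  rw [← sum_wt_all (F := F) (V := Module.Dual F X)]
  refine Finset.sum_bij' (fun W _ => (W.comap X.subtype).dualAnnihilator)
    (fun Φ _ => (Φ.dualCoannihilator).map X.subtype) (fun _ _ => Finset.mem_univ _)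
    (fun Φ _ => by simp [Submodule.map_subtype_le]) (fun W hW => ?_) (fun Φ _ => ?_) (fun W hW => ?_)
  · simp only [Finset.mem_filter, Finset.mem_univ, true_and] at hW
    simp only [Subspace.dualAnnihilator_dualCoannihilator_eq, Submodule.map_comap_subtype,
      inf_eq_right.2 hW]
  · simp only [Submodule.comap_map_eq_of_injective X.injective_subtype]
    exact Subspace.dualCoannihilator_dualAnnihilator_eq
  · simp only [Finset.mem_filter, Finset.mem_univ, true_and] at hW
    have h := Subspace.finrank_add_finrank_dualAnnihilator_eq (W.comap X.subtype)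
    rw [(Submodule.comapSubtypeEquivOfLe hW).finrank_eq] at h
    congr 1
    omega

end Cfsg.Agent.Dickson.SpUnip
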